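import Cfsg.Agent.Lib.SuzukiIdent.Zassenhaus

/-!
Suzuki groups over fields of equal order are isomorphic.
-/

set_option autoImplicit false

open CfsgLib.Suzuki

namespace CfsgLib.SuzukiIdent

/-- Every setup has a normal form with parameter `0` and twist squaring to the Frobenius map. -/
theorem exists_zero_norm {G Ω F : Type*} [Group G] [Finite G] [MulAction G Ω] [Field F] [CharP F 2] [Finite F]
    (S : Setup G Ω F) : ∃ S₂ : Setup G Ω F, S₂.IsNorm 0 ∧ ∀ x, S₂.φ (S₂.φ x) = x * x := by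
  obtain ⟨S₁, b, hN⟩ := S.exists_isNorm
  obtain ⟨c, hc⟩ := Setup.exists_param hN
  rcases hc.classify with ⟨rfl, hsq⟩ | ⟨rfl, hsq⟩
  · exact ⟨S₁, hN, hsq⟩
  · obtain ⟨S₂, hφ, hN₂⟩ := S₁.exists_swap hN rfl
    exact ⟨S₂, hN₂, fun x => by rw [hφ]; exact hsq x⟩

theorem nonempty_sz_congr {F F' : Type*} [Field F] [Field F'] {m : ℕ} (h : Hyp F m) (h' : Hyp F' m) :
    Nonempty (Cfsg.Sz F' m ≃* Cfsg.Sz F m) := by
  classical
  haveI := h.finite
  haveI := h'.finite
  haveI := h.finite_group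
  haveI := h'.finite_group
  haveI := h.charP
  letI := Fintype.ofFinite F
  letI := Fintype.ofFinite F'
  have hF : Fintype.card F = 2 ^ (2 * m + 1) := by rw [← Nat.card_eq_fintype_card, h.card]
  have hF' : Fintype.card F' = 2 ^ (2 * m + 1) := by rw [← Nat.card_eq_fintype_card, h'.card]
  obtain ⟨M, -⟩ := exists_model h
  obtain ⟨M', -⟩ := exists_model h'
  obtain ⟨S, hN, hsq⟩ := exists_zero_norm (M'.mapField (FiniteField.ringEquivOfCardEq (hF.trans hF'.symm)))
  obtain ⟨S', hN', hsq'⟩ := exists_zero_norm M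
  exact nonempty_equiv S S' (RingEquiv.ext fun x => by
    rw [twist_eq h.one_le hF _ hsq', twist_eq h.one_le hF _ hsq]) hN hN'

end CfsgLib.SuzukiIdent
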